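import Mathlib
import Cfsg.Agent.Lib.OreU.PosFinal
import Cfsg.Agent.Lib.OreU.PosTwo

/-!
# The position lemma for `SUM`, final form
-/

set_option autoImplicit false
set_option linter.unusedSectionVars false
set_option linter.unusedSimpArgs false
set_option linter.unusedVariables false

namespace Cfsg.Agent.Lib.OreU

open Matrix

variable {F : Type*} [Field F] [Fintype F] {m ε : ℕ}

/-- The transvection step. -/
theorem twoStep_all (hε : ε ≤ 1) : TwoStep F m ε := by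
  intro hF hm c e d hR hc hdet hns y φ hd
  obtain ⟨Z, S, hA, h1, h2⟩ := exists_upd_two hF hε hm c e d hR hc hdet hns y φ hd
  refine ⟨Z, S, hA, h1, ?_⟩
  rcases h2 with h2 | ⟨h2, h3⟩
  · exact Or.inl h2
  · exact Or.inr ⟨h2, fun _ _ => h3⟩

/-- The position lemma. -/
theorem exists_position {q : ℕ} (hF : Fintype.card F = q ^ 2) (hε : ε ≤ 1) (hm : 1 ≤ m) (hn : 3 ≤ 2 * m + ε)
    (hq : ¬ (2 * m + ε = 3 ∧ q = 2)) {g : GL (Ix m ε) F} (hg : g ∈ SUM hF m ε)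
    (hns : ¬ ∃ a : F, (g : Matrix (Ix m ε) (Ix m ε) F) = a • 1) :
    ∃ k ∈ SUM hF m ε, ∃ D : GL (Fin m) F,
      blkD ((k * g * k⁻¹ : GL (Ix m ε) F) : Matrix (Ix m ε) (Ix m ε) F) = (D : Matrix (Fin m) (Fin m) F) ∧
      (D : Matrix (Fin m) (Fin m) F).det = 1 ∧
      (D = 1 ∨ ((¬ ∃ a : F, (D : Matrix (Fin m) (Fin m) F) = a • 1) ∧
        (q = 2 → m ≤ 3 → ¬ ∃ y φ : Fin m → F, (D : Matrix (Fin m) (Fin m) F) = 1 + vecMulVec y φ))) :=
  exists_position_of_two hF hε hm (twoStep_all hε) hg hns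

end Cfsg.Agent.Lib.OreU
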